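import Cfsg.Agent.Lib.Helper88.SUSmall.E6cB3a
import Cfsg.Agent.Lib.Helper86.SUSmall.E6cB1

set_option autoImplicit false

/-! # E6cB3 (helper88 for helper13's farm) -/

namespace Cfsg.Agent.Lib.Helper88.SUSmall

open Cfsg Cfsg.Geo Matrix Cfsg.Agent.Lib.Helper5.SUAsch Cfsg.Agent.Lib.Helper13.SUSmall
open scoped MatrixGroups

variable {F : Type*} [Field F] [Fintype F]

theorem e6c_concrete (hF : Fintype.card F = 2 ^ 2) (ω : F) (hω : ω ^ 2 + ω + 1 = 0)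
    (h : GL (Fin 6) F) (hh : h ∈ SUg 6 F 2) (c : F) (hc : c ^ 3 = 1)
    (hcom : (h : Matrix (Fin 6) (Fin 6) F) * lam6 ω =
      c • (lam6 ω * (h : Matrix (Fin 6) (Fin 6) F))) :
    ∃ d : F, (h : Matrix (Fin 6) (Fin 6) F)ᵀ * B6 ω * (h : Matrix (Fin 6) (Fin 6) F) =
      d • B6 ω := by
  have hch := charTwo_of_card hF
  exact e6c_concrete_aux hF ω hω
    (fun M hM => Cfsg.Agent.Lib.Helper86.SUSmall.e6c_B1 CharTwo.two_eq_zero ω M hM) h hh c hc hcom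

end Cfsg.Agent.Lib.Helper88.SUSmall
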