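import Cfsg.Agent.Lib.Helper9.AschU.Base
import Cfsg.Agent.Lib.Helper27.Hexa
import Cfsg.Agent.Lib.Helper5.SUAsch.Defs2

set_option autoImplicit false

/-! # E6a: the frame stabiliser of `SU_6(2)` is not maximal

Invariant (helper13): the 126 points of weight two, or of weight six with product one. -/

namespace Cfsg.Agent.Lib.Helper88.SUSmall

open Cfsg Cfsg.Geo Matrix Cfsg.Agent.Lib.Helper5.SUAsch
open Cfsg.Agent.Lib.Helper27 (H4)
open Cfsg.Agent.Lib.Helper9.AschU (adj mem_GU_iff_adj)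
open scoped MatrixGroups

/-- `0` or `1` -/
def nz {R : Type*} [Zero R] [DecidableEq R] (a : R) : ℕ := if a = 0 then 0 else 1

/-- the invariant set of vectors -/
def cnd6 {R : Type*} [CommRing R] [DecidableEq R] (w : Fin 6 → R) : Prop :=
  (∑ i, nz (w i)) = 2 ∨ ((∀ i, w i ≠ 0) ∧ ∏ i, w i = 1)

/-- explicit form -/
def P6 {R : Type*} [CommRing R] [DecidableEq R] (a b c d e f : R) : Prop :=
  nz a + nz b + nz c + nz d + nz e + nz f = 2 ∨
    ((a ≠ 0 ∧ b ≠ 0 ∧ c ≠ 0 ∧ d ≠ 0 ∧ e ≠ 0 ∧ f ≠ 0) ∧ a * b * c * d * e * f = 1)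

instance (a b c d e f : H4) : Decidable (P6 a b c d e f) := by
  unfold P6; infer_instance

theorem cnd6_iff {R : Type*} [CommRing R] [DecidableEq R] (w : Fin 6 → R) :
    cnd6 w ↔ P6 (w 0) (w 1) (w 2) (w 3) (w 4) (w 5) := by
  unfold cnd6 P6
  rw [Fin.sum_univ_six, Fin.prod_univ_six]
  have : (∀ i, w i ≠ 0) ↔ (w 0 ≠ 0 ∧ w 1 ≠ 0 ∧ w 2 ≠ 0 ∧ w 3 ≠ 0 ∧ w 4 ≠ 0 ∧ w 5 ≠ 0) := by
    constructor
    · intro h
      exact ⟨h 0, h 1, h 2, h 3, h 4, h 5⟩
    · rintro ⟨h0, h1, h2, h3, h4, h5⟩ i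
      fin_cases i <;> assumption
  rw [this]

theorem P6_T : ∀ a b c d e f : H4,
    P6 (b + c + d + e + f) (a + c + d + e + f) (a + b + d + e + f) (a + b + c + e + f)
      (a + b + c + d + f) (a + b + c + d + e) ↔ P6 a b c d e f := by
  decide +kernel

theorem nz_map {R S : Type*} [CommRing R] [CommRing S] [DecidableEq R] [DecidableEq S]
    (φ : R →+* S) (hφ : Function.Injective φ) (x : R) : nz (φ x) = nz x := by
  unfold nz
  simp only [map_eq_zero_iff φ hφ]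

theorem cnd6_map {R S : Type*} [CommRing R] [CommRing S] [DecidableEq R] [DecidableEq S]
    (φ : R →+* S) (hφ : Function.Injective φ) (w : Fin 6 → R) : cnd6 (φ ∘ w) ↔ cnd6 w := by
  have h0 : ∀ x, φ x = 0 ↔ x = 0 := fun x => map_eq_zero_iff φ hφ
  have h1 : (∏ i, φ (w i)) = 1 ↔ (∏ i, w i) = 1 := by
    rw [← map_prod]
    constructor
    · intro h
      apply hφ
      rw [h, map_one]
    · intro h
      rw [h, map_one]
  simp only [cnd6, Function.comp_apply, h0, h1, ne_eq, nz_map φ hφ]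

theorem cnd6_perm {R : Type*} [CommRing R] [DecidableEq R] (σ : Equiv.Perm (Fin 6))
    (w : Fin 6 → R) : cnd6 (w ∘ σ) ↔ cnd6 w := by
  unfold cnd6
  simp only [Function.comp_apply]
  have e1 : ∑ i, nz (w (σ i)) = ∑ i, nz (w i) := Equiv.sum_comp σ (fun i => nz (w i))
  have e3 : (∀ i, w (σ i) ≠ 0) ↔ ∀ i, w i ≠ 0 := σ.forall_congr_left.trans (by simp)
  have e4 : ∏ i, w (σ i) = ∏ i, w i := Equiv.prod_comp σ w
  rw [e1, e3, e4]

theorem cnd6_scale {R : Type*} [CommRing R] [IsDomain R] [DecidableEq R] (d w : Fin 6 → R)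
    (hd : ∀ i, d i ≠ 0) (hp : (∏ i, d i) = 1) : cnd6 (fun i => d i * w i) ↔ cnd6 w := by
  unfold cnd6 nz
  have h0 : ∀ i, d i * w i = 0 ↔ w i = 0 := fun i => by simp [hd i]
  simp only [ne_eq, h0, Finset.prod_mul_distrib, hp, one_mul]

/-- monomial matrices -/
def mono6 {F : Type*} [Field F] (σ : Equiv.Perm (Fin 6)) (d : Fin 6 → F) :
    Matrix (Fin 6) (Fin 6) F := fun x y => if x = σ y then d y else 0

variable {F : Type*} [Field F]

theorem mono6_mulVec (σ : Equiv.Perm (Fin 6)) (d w : Fin 6 → F) :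
    mono6 σ d *ᵥ w = (fun i => d i * w i) ∘ σ.symm := by
  ext x
  simp only [mulVec, dotProduct, mono6, Function.comp_apply]
  rw [Finset.sum_eq_single (σ.symm x)]
  · simp
  · intro y _ hy
    rw [if_neg, zero_mul]
    intro h
    apply hy
    rw [h]; simp
  · simp

theorem mono6_eq (σ : Equiv.Perm (Fin 6)) (d : Fin 6 → F) :
    mono6 σ d = (σ⁻¹).permMatrix F * Matrix.diagonal d := by
  ext x y
  rw [Matrix.mul_diagonal]
  simp only [mono6, Equiv.Perm.permMatrix, Equiv.toPEquiv_apply, PEquiv.toMatrix_apply,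
    Option.mem_def, Option.some.injEq]
  by_cases h : x = σ y
  · subst h; simp
  · rw [if_neg h, if_neg, zero_mul]
    intro h'
    apply h
    rw [← h']; simp

theorem det_mono6 (σ : Equiv.Perm (Fin 6)) (d : Fin 6 → F) :
    (mono6 σ d).det = (Equiv.Perm.sign σ⁻¹ : ℤ) * ∏ i, d i := by
  rw [mono6_eq, Matrix.det_mul, Matrix.det_permutation, Matrix.det_diagonal]

theorem cnd6_mono [DecidableEq F] [CharP F 2] (σ : Equiv.Perm (Fin 6)) (d : Fin 6 → F)
    (hdet : (mono6 σ d).det = 1) (w : Fin 6 → F) : cnd6 (mono6 σ d *ᵥ w) ↔ cnd6 w := by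
  rw [det_mono6] at hdet
  have hd : ∀ i, d i ≠ 0 := by
    intro i hi
    have : ∏ i, d i = 0 := Finset.prod_eq_zero (Finset.mem_univ i) hi
    rw [this, mul_zero] at hdet
    exact zero_ne_one hdet
  have hp : (∏ i, d i) = 1 := by
    rcases Int.units_eq_one_or (Equiv.Perm.sign σ⁻¹) with h | h
    · rw [h] at hdet
      simpa using hdet
    · rw [h] at hdet
      have h' : -(∏ i, d i) = 1 := by simpa using hdet
      rwa [CharTwo.neg_eq] at h'
  rw [mono6_mulVec, cnd6_perm, cnd6_scale d w hd hp]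

/-- the stabiliser of the invariant set -/
def M6 (F : Type*) [Field F] [DecidableEq F] : Subgroup (GL (Fin 6) F) where
  carrier := {g | ∀ w, cnd6 ((g : Matrix (Fin 6) (Fin 6) F) *ᵥ w) ↔ cnd6 w}
  mul_mem' {a b} ha hb := by
    intro w
    rw [Units.val_mul, ← Matrix.mulVec_mulVec, ha, hb]
  one_mem' := by intro w; simp
  inv_mem' {a} ha := by
    intro w
    rw [← ha, Matrix.mulVec_mulVec, ← Units.val_mul, mul_inv_cancel, Units.val_one,
      Matrix.one_mulVec]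

/-- the extra element `1 + J` (characteristic two) -/
def T6 (R : Type*) [CommRing R] : Matrix (Fin 6) (Fin 6) R := fun i j => if i = j then 0 else 1

/-- the transvection along `(1,1,1,1,0,0)` -/
def U6 (R : Type*) [CommRing R] : Matrix (Fin 6) (Fin 6) R := fun i j =>
  if i.val < 4 ∧ j.val < 4 then (if i = j then 0 else 1) else (if i = j then 1 else 0)

theorem T6_map {R S : Type*} [CommRing R] [CommRing S] (φ : R →+* S) :
    (T6 R).map φ = T6 S := by
  ext i j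
  simp only [T6, Matrix.map_apply]
  split_ifs <;> simp

theorem U6_map {R S : Type*} [CommRing R] [CommRing S] (φ : R →+* S) :
    (U6 R).map φ = U6 S := by
  ext i j
  simp only [U6, Matrix.map_apply]
  split_ifs <;> simp

theorem T6_sq : T6 H4 * T6 H4 = 1 := by decide +kernel
theorem U6_sq : U6 H4 * U6 H4 = 1 := by decide +kernel
theorem T6_adj : adj 2 (T6 H4) * T6 H4 = 1 := by decide +kernel
theorem U6_adj : adj 2 (U6 H4) * U6 H4 = 1 := by decide +kernel

theorem T6_mulVec {R : Type*} [CommRing R] (w : Fin 6 → R) :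
    T6 R *ᵥ w = ![w 1 + w 2 + w 3 + w 4 + w 5, w 0 + w 2 + w 3 + w 4 + w 5,
      w 0 + w 1 + w 3 + w 4 + w 5, w 0 + w 1 + w 2 + w 4 + w 5, w 0 + w 1 + w 2 + w 3 + w 5,
      w 0 + w 1 + w 2 + w 3 + w 4] := by
  ext i
  fin_cases i <;> simp [T6, mulVec, dotProduct, Fin.sum_univ_six]

theorem cnd6_T6_H4 (w : Fin 6 → H4) : cnd6 (T6 H4 *ᵥ w) ↔ cnd6 w := by
  rw [T6_mulVec, cnd6_iff, cnd6_iff]
  exact P6_T _ _ _ _ _ _

theorem charTwo_of_card [Fintype F] (hF : Fintype.card F = 2 ^ 2) : CharP F 2 := by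
  obtain ⟨p, hchar⟩ := CharP.exists F
  obtain ⟨n, hp, hn⟩ := FiniteField.card F p
  rw [hF] at hn
  have h1 : p ∣ 2 ^ 2 := by
    rw [hn]; exact dvd_pow_self p n.ne_zero
  have h2 : p = 2 := (Nat.prime_dvd_prime_iff_eq hp Nat.prime_two).mp (hp.dvd_of_dvd_pow h1)
  subst h2
  exact hchar

/-- the concrete model -/
noncomputable def eH4 [Fintype F] (hF : Fintype.card F = 2 ^ 2) : H4 ≃+* F :=
  FiniteField.ringEquivOfCardEq (by rw [hF]; rfl)

theorem adj_map {K L : Type*} [Field K] [Field L] (φ : K →+* L) (q : ℕ)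
    (A : Matrix (Fin 6) (Fin 6) K) : adj q (A.map φ) = (adj q A).map φ := by
  ext i j
  simp [adj]

theorem mem_sl6_iff (g : GL (Fin 6) F) : g ∈ specialLinear (Fin 6) F ↔
    (g : Matrix (Fin 6) (Fin 6) F).det = 1 := by
  unfold specialLinear
  rw [MonoidHom.mem_ker, Units.ext_iff, Matrix.GeneralLinearGroup.val_det_apply, Units.val_one]

/-- an involutory unitary matrix over the model gives an element of `SU_6(2)` -/
theorem exists_su_of_model [Fintype F] (hF : Fintype.card F = 2 ^ 2)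
    (A : Matrix (Fin 6) (Fin 6) H4) (hsq : A * A = 1) (hadj : adj 2 A * A = 1) :
    ∃ a : GL (Fin 6) F, (a : Matrix (Fin 6) (Fin 6) F) = A.map (eH4 hF : H4 →+* F) ∧
      a ∈ SUg 6 F 2 := by
  have hch := charTwo_of_card hF
  set φ : H4 →+* F := (eH4 hF : H4 →+* F) with hφ
  have h1 : A.map φ * A.map φ = 1 := by
    rw [← Matrix.map_mul, hsq, Matrix.map_one _ (map_zero φ) (map_one φ)]
  obtain ⟨a, ha⟩ : ∃ a : GL (Fin 6) F, (a : Matrix (Fin 6) (Fin 6) F) = A.map φ :=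
    ⟨⟨A.map φ, A.map φ, h1, h1⟩, rfl⟩
  refine ⟨a, ha, ?_⟩
  refine Subgroup.mem_inf.mpr ⟨?_, ?_⟩
  · rw [mem_GU_iff_adj hF, ha]
    rw [adj_map, ← Matrix.map_mul, hadj, Matrix.map_one _ (map_zero φ) (map_one φ)]
  · rw [mem_sl6_iff, ha]
    have h2 : (A.map φ).det * (A.map φ).det = 1 := by
      rw [← Matrix.det_mul, h1, Matrix.det_one]
    have h3 : ((A.map φ).det + 1) * ((A.map φ).det + 1) = 0 := by
      have : ((A.map φ).det + 1) * ((A.map φ).det + 1) =
          (A.map φ).det * (A.map φ).det + 1 + 2 * (A.map φ).det := by ring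
      rw [this, h2, CharTwo.two_eq_zero, zero_mul, add_zero, CharTwo.add_self_eq_zero]
    have h4 : (A.map φ).det + 1 = 0 := by
      rcases mul_eq_zero.mp h3 with h | h <;> exact h
    have h5 := CharTwo.add_eq_zero.mp h4
    exact h5

theorem cnd6_T6 [Fintype F] [DecidableEq F] (hF : Fintype.card F = 2 ^ 2) (w : Fin 6 → F) :
    cnd6 (T6 F *ᵥ w) ↔ cnd6 w := by
  let e : H4 ≃+* F := eH4 hF
  let φ : H4 →+* F := e
  have hφ : Function.Injective φ := e.injective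
  obtain ⟨w₀, rfl⟩ : ∃ w₀ : Fin 6 → H4, φ ∘ w₀ = w :=
    ⟨fun i => e.symm (w i), by ext i; simp [φ]⟩
  have h1 : T6 F *ᵥ (φ ∘ w₀) = φ ∘ (T6 H4 *ᵥ w₀) := by
    ext i
    rw [Function.comp_apply, RingHom.map_mulVec, T6_map]
  rw [h1, cnd6_map φ hφ, cnd6_map φ hφ]
  exact cnd6_T6_H4 w₀

theorem T6_ne_mono6 (σ : Equiv.Perm (Fin 6)) (d : Fin 6 → F) : T6 F ≠ mono6 σ d := by
  intro h
  have e1 : (1 : F) = if (1 : Fin 6) = σ 0 then d 0 else 0 := by
    have := congrFun (congrFun h 1) 0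
    simpa [T6, mono6] using this
  have e2 : (1 : F) = if (2 : Fin 6) = σ 0 then d 0 else 0 := by
    have := congrFun (congrFun h 2) 0
    simpa [T6, mono6] using this
  by_cases h01 : (1 : Fin 6) = σ 0
  · rw [if_neg (by rw [← h01]; decide)] at e2
    exact one_ne_zero e2
  · rw [if_neg h01] at e1
    exact one_ne_zero e1

theorem not_cnd6_U6 [DecidableEq F] :
    ¬ ∀ w : Fin 6 → F, cnd6 (U6 F *ᵥ w) ↔ cnd6 w := by
  intro h
  have h1 : cnd6 (![1, 0, 0, 0, 1, 0] : Fin 6 → F) := by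
    rw [cnd6_iff]
    left
    simp [nz]
  have h2 := (h _).mpr h1
  have h3 : U6 F *ᵥ ![1, 0, 0, 0, 1, 0] = ![0, 1, 1, 1, 1, 0] := by
    ext i
    fin_cases i <;> simp [U6, mulVec, dotProduct, Fin.sum_univ_six]
  rw [h3, cnd6_iff] at h2
  rcases h2 with h2 | h2
  · simp [nz] at h2
  · simp at h2

theorem cube_eq [Fintype F] (hF : Fintype.card F = 2 ^ 2) (x : F) : x = 0 ∨ x ^ 3 = 1 := by
  by_cases hx : x = 0
  · exact Or.inl hx
  · right
    have := FiniteField.pow_card_sub_one_eq_one x hx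
    rwa [hF] at this

theorem herm_self [Fintype F] (hF : Fintype.card F = 2 ^ 2) (v : Fin 6 → F) :
    hermForm 6 F 2 v v = 0 ∨ hermForm 6 F 2 v v = 1 := by
  have h : (hermForm 6 F 2 v v) ^ 2 = hermForm 6 F 2 v v := by
    unfold hermForm
    rw [Cfsg.Agent.Lib.Helper13.sum_pow_q hF]
    apply Finset.sum_congr rfl
    intro k _
    rcases cube_eq hF (v k) with h | h
    · rw [h]; simp
    · have : v k * v k ^ 2 = v k ^ 3 := by ring
      rw [this, h]; simp
  have h2 : hermForm 6 F 2 v v * (hermForm 6 F 2 v v - 1) = 0 := by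
    have : hermForm 6 F 2 v v * (hermForm 6 F 2 v v - 1) =
        (hermForm 6 F 2 v v) ^ 2 - hermForm 6 F 2 v v := by ring
    rw [this, h, sub_self]
  rcases mul_eq_zero.mp h2 with h | h
  · exact Or.inl h
  · exact Or.inr (sub_eq_zero.mp h)

/-- a unitary frame for a non-degenerate decomposition into lines -/
theorem exists_frame6 [Fintype F] (hF : Fintype.card F = 2 ^ 2)
    (D : Fin 6 → Submodule F (Fin 6 → F))
    (hD : IsNondegenerateMDecomposition (hermForm 6 F 2) 1 D) :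
    ∃ B : GL (Fin 6) F, B ∈ GU 6 F 2 ∧ ∀ g ∈ decompositionStabilizer D,
      ∃ (σ : Equiv.Perm (Fin 6)) (d : Fin 6 → F),
        ((B⁻¹ * g * B : GL (Fin 6) F) : Matrix (Fin 6) (Fin 6) F) = mono6 σ d := by
  have hv : ∀ i, ∃ v : Fin 6 → F, v ≠ 0 ∧ v ∈ D i ∧ ∀ w ∈ D i, ∃ c : F, w = c • v := by
    intro i
    obtain ⟨v, hv0, hv⟩ := finrank_eq_one_iff'.mp (hD.decomp.finrank_eq i)
    refine ⟨v, fun h => hv0 (Subtype.ext h), v.2, fun w hw => ?_⟩
    obtain ⟨c, hc⟩ := hv ⟨w, hw⟩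
    exact ⟨c, by rw [← Submodule.coe_smul, hc]⟩
  choose v hv0 hvD hvs using hv
  have hself : ∀ i, hermForm 6 F 2 (v i) (v i) = 1 := by
    intro i
    rcases herm_self hF (v i) with h | h
    · exfalso
      obtain ⟨⟨x, hx, hfx⟩, -⟩ := hD.nondegenerate i (v i) (hvD i) (hv0 i)
      obtain ⟨c, rfl⟩ := hvs i x hx
      apply hfx
      have : hermForm 6 F 2 (c • v i) (v i) = c * hermForm 6 F 2 (v i) (v i) := by
        simp [hermForm, Finset.mul_sum, mul_assoc]
      rw [this, h, mul_zero]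
    · exact h
  have horth : ∀ i j, i ≠ j → hermForm 6 F 2 (v i) (v j) = 0 :=
    fun i j hij => hD.orthogonal i j hij _ (hvD i) _ (hvD j)
  let B₀ : Matrix (Fin 6) (Fin 6) F := Matrix.of fun x y => v y x
  have hadj : adj 2 B₀ * B₀ = 1 := by
    ext i j
    rw [Matrix.mul_apply]
    have : ∑ k, adj 2 B₀ i k * B₀ k j = hermForm 6 F 2 (v j) (v i) := by
      unfold hermForm
      apply Finset.sum_congr rfl
      intro k _
      simp [adj, B₀, mul_comm]
    rw [this, Matrix.one_apply]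
    by_cases h : i = j
    · subst h; rw [if_pos rfl, hself]
    · rw [if_neg h, horth j i (Ne.symm h)]
  have hu : IsUnit B₀ := ⟨⟨B₀, adj 2 B₀, mul_eq_one_comm.mp hadj, hadj⟩, rfl⟩
  obtain ⟨B, hB⟩ := hu
  refine ⟨B, by rw [mem_GU_iff_adj hF, hB]; exact hadj, ?_⟩
  rintro g ⟨σ, hσ⟩
  have hg : ∀ i, ∃ c : F, (g : Matrix (Fin 6) (Fin 6) F) *ᵥ v i = c • v (σ i) := by
    intro i
    apply hvs
    rw [← hσ i]
    exact ⟨v i, hvD i, by simp⟩
  choose d hd using hg
  refine ⟨σ, d, ?_⟩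
  have key : (g : Matrix (Fin 6) (Fin 6) F) * B₀ = B₀ * mono6 σ d := by
    ext x y
    have h1 : ((g : Matrix (Fin 6) (Fin 6) F) * B₀) x y =
        ((g : Matrix (Fin 6) (Fin 6) F) *ᵥ v y) x := by
      simp [Matrix.mul_apply, Matrix.mulVec, dotProduct, B₀]
    rw [h1, hd y, Matrix.mul_apply, Finset.sum_eq_single (σ y)]
    · simp [mono6, B₀, mul_comm]
    · intro k _ hk
      simp [mono6, hk]
    · simp
  rw [Units.val_mul, Units.val_mul, hB, mul_assoc, key, ← mul_assoc, ← hB, ← Units.val_mul,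
    inv_mul_cancel, Units.val_one, one_mul]

theorem frame6_q2_not_max [Fintype F] (hF : Fintype.card F = 2 ^ 2)
    (D : Fin 6 → Submodule F (Fin 6 → F))
    (hD : IsNondegenerateMDecomposition (hermForm 6 F 2) 1 D) :
    ¬ IsMaximalIn (SUg 6 F 2) (decompositionStabilizer D ⊓ SUg 6 F 2) := by
  classical
  rintro ⟨-, hmax⟩
  have hch := charTwo_of_card hF
  obtain ⟨B, hBU, hB⟩ := exists_frame6 hF D hD
  have hSLn : (specialLinear (Fin 6) F).Normal := by
    unfold specialLinear; infer_instance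
  let M : Subgroup (GL (Fin 6) F) :=
    (M6 F).comap (MulAut.conj B⁻¹).toMonoidHom ⊓ SUg 6 F 2
  have hmem : ∀ g, g ∈ M ↔ (B⁻¹ * g * B ∈ M6 F ∧ g ∈ SUg 6 F 2) := by
    intro g
    simp [M, Subgroup.mem_inf, Subgroup.mem_comap]
  have hconj : ∀ g, g ∈ SUg 6 F 2 → B⁻¹ * g * B ∈ SUg 6 F 2 := by
    intro g hg
    obtain ⟨hg1, hg2⟩ := Subgroup.mem_inf.mp hg
    refine Subgroup.mem_inf.mpr ⟨mul_mem (mul_mem (inv_mem hBU) hg1) hBU, ?_⟩
    have := hSLn.conj_mem g hg2 B⁻¹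
    simpa using this
  have hconj' : ∀ g, g ∈ SUg 6 F 2 → B * g * B⁻¹ ∈ SUg 6 F 2 := by
    intro g hg
    obtain ⟨hg1, hg2⟩ := Subgroup.mem_inf.mp hg
    exact Subgroup.mem_inf.mpr ⟨mul_mem (mul_mem hBU hg1) (inv_mem hBU), hSLn.conj_mem g hg2 B⟩
  have hle : decompositionStabilizer D ⊓ SUg 6 F 2 ≤ M := by
    intro g hg
    obtain ⟨hg1, hg2⟩ := Subgroup.mem_inf.mp hg
    rw [hmem]
    refine ⟨?_, hg2⟩
    obtain ⟨σ, d, hσ⟩ := hB g hg1
    intro w
    have hd1 : (mono6 σ d).det = 1 := by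
      rw [← hσ]
      exact (mem_sl6_iff _).mp (Subgroup.mem_inf.mp (hconj g hg2)).2
    rw [hσ]
    exact cnd6_mono σ d hd1 w
  rcases hmax M hle inf_le_right with hM | hM
  · -- the extra element
    obtain ⟨a, ha, haSU⟩ := exists_su_of_model hF (T6 H4) T6_sq T6_adj
    rw [T6_map] at ha
    have haM : B * a * B⁻¹ ∈ M := by
      rw [hmem]
      refine ⟨?_, hconj' a haSU⟩
      have : B⁻¹ * (B * a * B⁻¹) * B = a := by group
      rw [this]
      intro w
      rw [ha]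
      exact cnd6_T6 hF w
    rw [hM] at haM
    obtain ⟨σ, d, hσ⟩ := hB _ (Subgroup.mem_inf.mp haM).1
    have : B⁻¹ * (B * a * B⁻¹) * B = a := by group
    rw [this, ha] at hσ
    exact T6_ne_mono6 σ d hσ
  · -- a transvection
    obtain ⟨τ, hτ, hτSU⟩ := exists_su_of_model hF (U6 H4) U6_sq U6_adj
    rw [U6_map] at hτ
    have hτM : B * τ * B⁻¹ ∈ M := by
      rw [hM]; exact hconj' τ hτSU
    rw [hmem] at hτM
    have : B⁻¹ * (B * τ * B⁻¹) * B = τ := by group
    rw [this] at hτM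
    apply not_cnd6_U6 (F := F)
    intro w
    have := hτM.1 w
    rwa [hτ] at this

end Cfsg.Agent.Lib.Helper88.SUSmall
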