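import Cfsg.Agent.Lib.Helper13.SUSmall.Defs
import Cfsg.Agent.Lib.Helper60.SUSmall.GEN
import Cfsg.Agent.Lib.Helper88.SUSmall.E6a

set_option autoImplicit false

/-! # E5A, core (helper88 for helper13's farm): `field5_q2_not_max` from the data of E5D, E5N -/

namespace Cfsg.Agent.Lib.Helper88.SUSmall

open Cfsg Cfsg.Geo Matrix Cfsg.Agent.Lib.Helper5.SUAsch Cfsg.Agent.Lib.Helper13.SUSmall
open scoped MatrixGroups

variable {F : Type*} [Field F]

/-- the stabiliser of the invariant set -/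
def M5 (ω : F) (l : GL (Fin 5) F) : Subgroup (GL (Fin 5) F) where
  carrier := {g | ∀ w, cond5 ω l ((g : Matrix (Fin 5) (Fin 5) F) *ᵥ w) ↔ cond5 ω l w}
  mul_mem' {a b} ha hb := by
    intro w
    rw [Units.val_mul, ← Matrix.mulVec_mulVec, ha, hb]
  one_mem' := by intro w; simp
  inv_mem' {a} ha := by
    intro w
    rw [← ha, Matrix.mulVec_mulVec, ← Units.val_mul, mul_inv_cancel, Units.val_one,
      Matrix.one_mulVec]

theorem m1five_conj (ω : F) (u : GL (Fin 5) F) (X : Matrix (Fin 5) (Fin 5) F) :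
    m1five ω (((u⁻¹ : GL (Fin 5) F) : Matrix (Fin 5) (Fin 5) F) * X * (u : Matrix (Fin 5) (Fin 5) F))
      = ((u⁻¹ : GL (Fin 5) F) : Matrix (Fin 5) (Fin 5) F) * m1five ω X *
        (u : Matrix (Fin 5) (Fin 5) F) := by
  have h1 : ((u⁻¹ : GL (Fin 5) F) : Matrix (Fin 5) (Fin 5) F) * (u : Matrix (Fin 5) (Fin 5) F) = 1 := by
    rw [← Units.val_mul, inv_mul_cancel, Units.val_one]
  unfold m1five
  simp only [Units.conj_pow', Matrix.mul_add, Matrix.add_mul, Matrix.mul_smul, Matrix.smul_mul,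
    Matrix.mul_one, h1]

theorem conj_pow_aux {G : Type*} [Group G] (l h : G) (i : ℕ) :
    (h⁻¹ * l * h) ^ i = h⁻¹ * l ^ i * h := by
  have := conj_pow (a := h⁻¹) (b := l) (i := i)
  rwa [inv_inv] at this

theorem mem_GU5 (h : GL (Fin 5) F) (hh : h ∈ GU 5 F 2) (u v : Fin 5 → F) :
    hermForm 5 F 2 ((h : Matrix (Fin 5) (Fin 5) F) *ᵥ u) ((h : Matrix (Fin 5) (Fin 5) F) *ᵥ v) =
      hermForm 5 F 2 u v := hh u v

/-- an element of `GU` conjugating `l` to `l ^ j`, `j` a square mod 11, preserves the set -/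
theorem cond5_of_conj (ω : F) (l h : GL (Fin 5) F) (hl11 : l ^ 11 = 1) (hh : h ∈ GU 5 F 2)
    {j : ℕ} (hj : j = 1 ∨ j = 3 ∨ j = 4 ∨ j = 5 ∨ j = 9) (hc : h⁻¹ * l * h = l ^ j)
    (x : Fin 5 → F) :
    cond5 ω l ((h : Matrix (Fin 5) (Fin 5) F) *ᵥ x) ↔ cond5 ω l x := by
  have hU := mem_GU5 h hh
  obtain ⟨P, hP⟩ : ∃ P : ℕ → F, ∀ n, P n =
      hermForm 5 F 2 (((l ^ n : GL (Fin 5) F) : Matrix (Fin 5) (Fin 5) F) *ᵥ x) x := ⟨_, fun _ => rfl⟩
  have key : ∀ i : ℕ, hermForm 5 F 2 (((l ^ i : GL (Fin 5) F) : Matrix (Fin 5) (Fin 5) F) *ᵥ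
      ((h : Matrix (Fin 5) (Fin 5) F) *ᵥ x)) ((h : Matrix (Fin 5) (Fin 5) F) *ᵥ x) =
      P ((i * j) % 11) := by
    intro i
    have e1 : l ^ i * h = h * l ^ ((i * j) % 11) := by
      rw [← pow_eq_pow_mod _ hl11, mul_comm i j, pow_mul, ← hc, conj_pow_aux]
      group
    rw [Matrix.mulVec_mulVec, ← Units.val_mul, e1, Units.val_mul, ← Matrix.mulVec_mulVec, hU, hP]
  unfold cond5
  simp only [Finset.mem_insert, Finset.mem_singleton, forall_eq_or_imp, forall_eq, key, hU, ← hP]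
  rcases hj with rfl | rfl | rfl | rfl | rfl <;> norm_num <;> tauto

end Cfsg.Agent.Lib.Helper88.SUSmall
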