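import Cfsg.Agent.Lib.Helper13.SUSmall.Defs5
import Cfsg.Agent.Lib.Helper60.SUSmall.GEN
import Cfsg.Agent.Lib.Helper88.SUSmall.E5Aa

set_option autoImplicit false

/-! # E3cA, core (helper88 for helper13's farm): `field3_q5_not_max` from the data of E3cD, E3cN -/

namespace Cfsg.Agent.Lib.Helper88.SUSmall

open Cfsg Cfsg.Geo Matrix Cfsg.Agent.Lib.Helper5.SUAsch Cfsg.Agent.Lib.Helper13.SUSmall
open scoped MatrixGroups

variable {F : Type*} [Field F]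

/-- the stabiliser of the invariant set -/
def M35 (t : F) (l : GL (Fin 3) F) : Subgroup (GL (Fin 3) F) where
  carrier := {g | ∀ w, cond35 t l ((g : Matrix (Fin 3) (Fin 3) F) *ᵥ w) ↔ cond35 t l w}
  mul_mem' {a b} ha hb := by
    intro w
    rw [Units.val_mul, ← Matrix.mulVec_mulVec, ha, hb]
  one_mem' := by intro w; simp
  inv_mem' {a} ha := by
    intro w
    rw [← ha, Matrix.mulVec_mulVec, ← Units.val_mul, mul_inv_cancel, Units.val_one,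
      Matrix.one_mulVec]

theorem mem_sl3_iff (g : GL (Fin 3) F) : g ∈ specialLinear (Fin 3) F ↔
    (g : Matrix (Fin 3) (Fin 3) F).det = 1 := by
  unfold specialLinear
  rw [MonoidHom.mem_ker, Units.ext_iff, Matrix.GeneralLinearGroup.val_det_apply, Units.val_one]

theorem det3_mulVec (h : Matrix (Fin 3) (Fin 3) F) (a b c : Fin 3 → F) :
    det3 (h *ᵥ a) (h *ᵥ b) (h *ᵥ c) = h.det * det3 a b c := by
  unfold det3
  have : (Matrix.of ![h *ᵥ a, h *ᵥ b, h *ᵥ c]) = Matrix.of ![a, b, c] * hᵀ := by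
    ext i j
    fin_cases i <;> simp [Matrix.mul_apply, Matrix.mulVec, dotProduct, mul_comm]
  rw [this, Matrix.det_mul, Matrix.det_transpose, mul_comm]

theorem mem_GU3 (h : GL (Fin 3) F) (hh : h ∈ GU 3 F 5) (u v : Fin 3 → F) :
    hermForm 3 F 5 ((h : Matrix (Fin 3) (Fin 3) F) *ᵥ u) ((h : Matrix (Fin 3) (Fin 3) F) *ᵥ v) =
      hermForm 3 F 5 u v := hh u v

theorem and_or_rot1 (A P Q R : Prop) : (A ∧ (Q ∨ R ∨ P)) ↔ (A ∧ (P ∨ Q ∨ R)) := by tauto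

theorem and_or_rot2 (A P Q R : Prop) : (A ∧ (R ∨ P ∨ Q)) ↔ (A ∧ (P ∨ Q ∨ R)) := by tauto

/-- an element of `SU` conjugating `l` to `l ^ k`, `k ∈ {1, 2, 4}`, preserves the set -/
theorem cond35_of_conj (t : F) (l h : GL (Fin 3) F) (hl7 : l ^ 7 = 1) (hh : h ∈ SUg 3 F 5)
    {k : ℕ} (hk : k = 1 ∨ k = 2 ∨ k = 4) (hc : h⁻¹ * l * h = l ^ k)
    (x : Fin 3 → F) :
    cond35 t l ((h : Matrix (Fin 3) (Fin 3) F) *ᵥ x) ↔ cond35 t l x := by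
  have hU := mem_GU3 h (Subgroup.mem_inf.mp hh).1
  have hdet : (h : Matrix (Fin 3) (Fin 3) F).det = 1 := (mem_sl3_iff h).mp (Subgroup.mem_inf.mp hh).2
  obtain ⟨R, hR⟩ : ∃ R : ℕ → Prop, ∀ n, R n ↔ ∃ p ∈ pairs35 t,
    hermForm 3 F 5 (((l ^ n : GL (Fin 3) F) : Matrix (Fin 3) (Fin 3) F) *ᵥ x) x =
      p.1 * hermForm 3 F 5 x x ∧
    (det3 x (((l ^ n : GL (Fin 3) F) : Matrix (Fin 3) (Fin 3) F) *ᵥ x)
      (((l ^ (2 * n) : GL (Fin 3) F) : Matrix (Fin 3) (Fin 3) F) *ᵥ x)) ^ 2 =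
      p.2 * hermForm 3 F 5 x x := ⟨_, fun _ => Iff.rfl⟩
  have e0 : ∀ i : ℕ, l ^ i * h = h * (l ^ k) ^ i := by
    intro i
    rw [← hc, conj_pow_aux]; group
  have e1 : ∀ j : ℕ, l ^ j * h = h * l ^ ((j * k) % 7) := by
    intro j
    rw [e0, ← pow_eq_pow_mod _ hl7, mul_comm j k, pow_mul]
  have e2 : ∀ j : ℕ, l ^ (2 * j) * h = h * l ^ (2 * ((j * k) % 7)) := by
    intro j
    rw [e0, mul_comm 2 ((j * k) % 7), pow_mul l, ← pow_eq_pow_mod _ hl7, mul_comm j k, pow_mul l,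
      mul_comm 2 j, pow_mul]
  have m1 : ∀ j : ℕ, ((l ^ j : GL (Fin 3) F) : Matrix (Fin 3) (Fin 3) F) *ᵥ
      ((h : Matrix (Fin 3) (Fin 3) F) *ᵥ x) = (h : Matrix (Fin 3) (Fin 3) F) *ᵥ
      (((l ^ ((j * k) % 7) : GL (Fin 3) F) : Matrix (Fin 3) (Fin 3) F) *ᵥ x) := by
    intro j
    rw [Matrix.mulVec_mulVec, ← Units.val_mul, e1, Units.val_mul, ← Matrix.mulVec_mulVec]
  have m2 : ∀ j : ℕ, ((l ^ (2 * j) : GL (Fin 3) F) : Matrix (Fin 3) (Fin 3) F) *ᵥ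
      ((h : Matrix (Fin 3) (Fin 3) F) *ᵥ x) = (h : Matrix (Fin 3) (Fin 3) F) *ᵥ
      (((l ^ (2 * ((j * k) % 7)) : GL (Fin 3) F) : Matrix (Fin 3) (Fin 3) F) *ᵥ x) := by
    intro j
    rw [Matrix.mulVec_mulVec, ← Units.val_mul, e2, Units.val_mul, ← Matrix.mulVec_mulVec]
  have key : ∀ j : ℕ, (∃ p ∈ pairs35 t,
      hermForm 3 F 5 (((l ^ j : GL (Fin 3) F) : Matrix (Fin 3) (Fin 3) F) *ᵥ
        ((h : Matrix (Fin 3) (Fin 3) F) *ᵥ x)) ((h : Matrix (Fin 3) (Fin 3) F) *ᵥ x) =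
        p.1 * hermForm 3 F 5 ((h : Matrix (Fin 3) (Fin 3) F) *ᵥ x)
          ((h : Matrix (Fin 3) (Fin 3) F) *ᵥ x) ∧
      (det3 ((h : Matrix (Fin 3) (Fin 3) F) *ᵥ x)
        (((l ^ j : GL (Fin 3) F) : Matrix (Fin 3) (Fin 3) F) *ᵥ
          ((h : Matrix (Fin 3) (Fin 3) F) *ᵥ x))
        (((l ^ (2 * j) : GL (Fin 3) F) : Matrix (Fin 3) (Fin 3) F) *ᵥ
          ((h : Matrix (Fin 3) (Fin 3) F) *ᵥ x))) ^ 2 =
        p.2 * hermForm 3 F 5 ((h : Matrix (Fin 3) (Fin 3) F) *ᵥ x)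
          ((h : Matrix (Fin 3) (Fin 3) F) *ᵥ x)) ↔ R ((j * k) % 7) := by
    intro j
    rw [hR, m2, m1, hU, hU, det3_mulVec, hdet, one_mul]
  have c1 : cond35 t l ((h : Matrix (Fin 3) (Fin 3) F) *ᵥ x) ↔
      (hermForm 3 F 5 x x ≠ 0 ∧ (R ((1 * k) % 7) ∨ R ((2 * k) % 7) ∨ R ((4 * k) % 7))) := by
    unfold cond35
    simp only [Finset.mem_insert, Finset.mem_singleton, exists_eq_or_imp, exists_eq_left, key]
    rw [hU]
  have c2 : cond35 t l x ↔ (hermForm 3 F 5 x x ≠ 0 ∧ (R 1 ∨ R 2 ∨ R 4)) := by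
    unfold cond35
    simp only [Finset.mem_insert, Finset.mem_singleton, exists_eq_or_imp, exists_eq_left, hR]
  rw [c1, c2]
  generalize hermForm 3 F 5 x x = a
  rcases hk with rfl | rfl | rfl
  · exact Iff.rfl
  · have e1 : (1 * 2) % 7 = 2 := rfl
    have e2 : (2 * 2) % 7 = 4 := rfl
    have e3 : (4 * 2) % 7 = 1 := rfl
    rw [e1, e2, e3]; exact and_or_rot1 _ _ _ _
  · have e1 : (1 * 4) % 7 = 4 := rfl
    have e2 : (2 * 4) % 7 = 1 := rfl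
    have e3 : (4 * 4) % 7 = 2 := rfl
    rw [e1, e2, e3]; exact and_or_rot2 _ _ _ _

end Cfsg.Agent.Lib.Helper88.SUSmall
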