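import Cfsg.Agent.Lib.Helper88.SUSmall.E3cAb
import Cfsg.Agent.Lib.Helper86.SUSmall.E3cD
import Cfsg.Agent.Lib.Helper37.SUSmall.E3cN

set_option autoImplicit false

/-! # E3cA (helper88 for helper13's farm): the field-extension subgroup `21:3` of `SU_3(5)` is not
maximal (it lies in `3.A_7`) -/

namespace Cfsg.Agent.Lib.Helper88.SUSmall

open Cfsg Cfsg.Geo Matrix Cfsg.Agent.Lib.Helper5.SUAsch Cfsg.Agent.Lib.Helper13.SUSmall
open scoped MatrixGroups

variable {F : Type*} [Field F] [Fintype F]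

/-- E3cA -/
theorem field3_q5_not_max (hF : Fintype.card F = 5 ^ 2)
    (K : Subalgebra F (Matrix (Fin 3) (Fin 3) F)) (hK : IsFieldSubalgebra 3 K)
    (hadj : IsAdjointClosedFor (hermForm 3 F 5) K) :
    ¬ IsMaximalIn (SUg 3 F 5) (subalgebraNormalizer K ⊓ SUg 3 F 5) :=
  field3_q5_not_max_of (Cfsg.Agent.Lib.Helper86.SUSmall.e3c_data hF) K hK
    (fun l hl h7 h1 => Cfsg.Agent.Lib.Helper37.SUSmall.e3c_normal hF K hK hadj l hl h7 h1)

end Cfsg.Agent.Lib.Helper88.SUSmall
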