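import Cfsg.Agent.Lib.Helper88.SUSmall.E3cAa

set_option autoImplicit false

/-! # E3cA, hypothesis form (helper88 for helper13's farm): the field-extension subgroup `21:3` of
`SU_3(5)` is not maximal (it lies in `3.A_7`), from the statements of E3cD and E3cN -/

namespace Cfsg.Agent.Lib.Helper88.SUSmall

open Cfsg Cfsg.Geo Matrix Cfsg.Agent.Lib.Helper5.SUAsch Cfsg.Agent.Lib.Helper13.SUSmall
open scoped MatrixGroups

variable {F : Type*} [Field F] [Fintype F]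

/-- E3cA from E3cD and E3cN -/
theorem field3_q5_not_max_of
    (hD : ∃ (t : F) (l g s : GL (Fin 3) F), t ^ 2 = 2 ∧ l ∈ GU 3 F 5 ∧ l ^ 7 = 1 ∧ l ≠ 1 ∧
      (∀ j ∈ ({0, 3, 5, 6} : Finset ℕ),
        ((l ^ j : GL (Fin 3) F) : Matrix (Fin 3) (Fin 3) F).trace ≠
          (l : Matrix (Fin 3) (Fin 3) F).trace) ∧
      g ∈ SUg 3 F 5 ∧
      (∀ x, cond35 t l ((g : Matrix (Fin 3) (Fin 3) F) *ᵥ x) ↔ cond35 t l x) ∧
      g * l * g⁻¹ * l ≠ l * (g * l * g⁻¹) ∧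
      s ∈ SUg 3 F 5 ∧ ∃ x, cond35 t l x ∧ ¬ cond35 t l ((s : Matrix (Fin 3) (Fin 3) F) *ᵥ x))
    (K : Subalgebra F (Matrix (Fin 3) (Fin 3) F)) (hK : IsFieldSubalgebra 3 K)
    (hN : ∀ (l : GL (Fin 3) F), l ∈ GU 3 F 5 → l ^ 7 = 1 → l ≠ 1 →
      ∃ T ∈ GU 3 F 5, ((T * l * T⁻¹ : GL (Fin 3) F) : Matrix (Fin 3) (Fin 3) F) ∈ K) :
    ¬ IsMaximalIn (SUg 3 F 5) (subalgebraNormalizer K ⊓ SUg 3 F 5) := by
  classical
  rintro ⟨-, hmax⟩
  obtain ⟨t, l, g, s, -, hlU, hl7, hl1, htr, hgSU, hgc, hgnc, hsSU, x, hx, hsx⟩ := hD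
  obtain ⟨T, hTU, hTK⟩ := hN l hlU hl7 hl1
  have hSLn : (specialLinear (Fin 3) F).Normal := by
    unfold specialLinear; infer_instance
  let M : Subgroup (GL (Fin 3) F) :=
    (M35 t l).comap (MulAut.conj T⁻¹).toMonoidHom ⊓ SUg 3 F 5
  have hmem : ∀ g, g ∈ M ↔ (T⁻¹ * g * T ∈ M35 t l ∧ g ∈ SUg 3 F 5) := by
    intro g
    simp [M, Subgroup.mem_inf, Subgroup.mem_comap]
  have hconj : ∀ g, g ∈ SUg 3 F 5 → T⁻¹ * g * T ∈ SUg 3 F 5 := by
    intro g hg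
    obtain ⟨hg1, hg2⟩ := Subgroup.mem_inf.mp hg
    refine Subgroup.mem_inf.mpr ⟨mul_mem (mul_mem (inv_mem hTU) hg1) hTU, ?_⟩
    have := hSLn.conj_mem g hg2 T⁻¹
    simpa using this
  have hconj' : ∀ g, g ∈ SUg 3 F 5 → T * g * T⁻¹ ∈ SUg 3 F 5 := by
    intro g hg
    obtain ⟨hg1, hg2⟩ := Subgroup.mem_inf.mp hg
    exact Subgroup.mem_inf.mpr ⟨mul_mem (mul_mem hTU hg1) (inv_mem hTU), hSLn.conj_mem g hg2 T⟩
  have hL7 : (T * l * T⁻¹) ^ 7 = 1 := by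
    rw [conj_pow, hl7]; group
  have hL1 : T * l * T⁻¹ ≠ 1 := by
    intro h
    apply hl1
    have : l = T⁻¹ * (T * l * T⁻¹) * T := by group
    rw [this, h]; group
  have hle : subalgebraNormalizer K ⊓ SUg 3 F 5 ≤ M := by
    intro y hy
    obtain ⟨hy1, hy2⟩ := Subgroup.mem_inf.mp hy
    rw [hmem]
    refine ⟨?_, hy2⟩
    have hhU : T⁻¹ * y * T ∈ SUg 3 F 5 := hconj y hy2
    have hμK : ((y⁻¹ * (T * l * T⁻¹) * y : GL (Fin 3) F) : Matrix (Fin 3) (Fin 3) F) ∈ K := by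
      have := ((inv_mem hy1 : y⁻¹ ∈ subalgebraNormalizer K) _).mp hTK
      rw [inv_inv] at this
      rw [Units.val_mul, Units.val_mul]
      exact this
    have hμ7 : (y⁻¹ * (T * l * T⁻¹) * y) ^ 7 = 1 := by
      rw [conj_pow_aux, hL7]; group
    obtain ⟨j, hj7, hj⟩ := Cfsg.Agent.Lib.Helper60.SUSmall.K_eq_pow hK 7 (by norm_num) hTK hμK
      (by rw [← Units.val_pow_eq_pow_val, hL7, Units.val_one])
      (by intro h; exact hL1 (Units.ext (by rw [h, Units.val_one])))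
      (by rw [← Units.val_pow_eq_pow_val, hμ7, Units.val_one])
    have hj' : y⁻¹ * (T * l * T⁻¹) * y = (T * l * T⁻¹) ^ j :=
      Units.ext (by rw [hj, Units.val_pow_eq_pow_val])
    have hc : (T⁻¹ * y * T)⁻¹ * l * (T⁻¹ * y * T) = l ^ j := by
      have e1 : (T⁻¹ * y * T)⁻¹ * l * (T⁻¹ * y * T) = T⁻¹ * (y⁻¹ * (T * l * T⁻¹) * y) * T := by
        group
      rw [e1, hj', conj_pow]; group
    have htj : ((l ^ j : GL (Fin 3) F) : Matrix (Fin 3) (Fin 3) F).trace =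
        (l : Matrix (Fin 3) (Fin 3) F).trace := by
      rw [← hc, Units.val_mul, Units.val_mul, Matrix.trace_units_conj']
    have hjs : j = 1 ∨ j = 2 ∨ j = 4 := by
      have hn : j ∉ ({0, 3, 5, 6} : Finset ℕ) := fun h => htr j h htj
      simp only [Finset.mem_insert, Finset.mem_singleton, not_or] at hn
      omega
    intro w
    exact cond35_of_conj t l _ hl7 hhU hjs hc w
  rcases hmax M hle inf_le_right with hM | hM
  · -- the extra element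
    have hgM : T * g * T⁻¹ ∈ M := by
      rw [hmem]
      refine ⟨?_, hconj' g hgSU⟩
      have : T⁻¹ * (T * g * T⁻¹) * T = g := by group
      rw [this]
      exact hgc
    rw [hM] at hgM
    have hN' := ((Subgroup.mem_inf.mp hgM).1 _).mp hTK
    have hcm := hK.comm _ hN' _ hTK
    rw [← Units.val_mul, ← Units.val_mul, ← Units.val_mul, ← Units.val_mul] at hcm
    have hcm' := Units.ext hcm
    apply hgnc
    have e1 : g * l * g⁻¹ * l =
        T⁻¹ * (T * g * T⁻¹ * (T * l * T⁻¹) * (T * g * T⁻¹)⁻¹ * (T * l * T⁻¹)) * T := by group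
    have e2 : l * (g * l * g⁻¹) =
        T⁻¹ * (T * l * T⁻¹ * (T * g * T⁻¹ * (T * l * T⁻¹) * (T * g * T⁻¹)⁻¹)) * T := by group
    rw [e1, e2, hcm']
  · have hsM : T * s * T⁻¹ ∈ M := by
      rw [hM]; exact hconj' s hsSU
    rw [hmem] at hsM
    have : T⁻¹ * (T * s * T⁻¹) * T = s := by group
    rw [this] at hsM
    exact hsx ((hsM.1 x).mpr hx)

end Cfsg.Agent.Lib.Helper88.SUSmall
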