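import Cfsg.Agent.Lib.Helper88.SUSmall.E5Aa
import Cfsg.Agent.Lib.Helper86.SUSmall.E5D
import Cfsg.Agent.Lib.Helper60.SUSmall.E5N

set_option autoImplicit false

/-! # E5A (helper88 for helper13's farm): the field-extension subgroup `11:5` of `SU_5(2)` is not
maximal (it lies in `L_2(11)`) -/

namespace Cfsg.Agent.Lib.Helper88.SUSmall

open Cfsg Cfsg.Geo Matrix Cfsg.Agent.Lib.Helper5.SUAsch Cfsg.Agent.Lib.Helper13.SUSmall
open scoped MatrixGroups

variable {F : Type*} [Field F] [Fintype F]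

/-- E5A -/
theorem field5_q2_not_max (hF : Fintype.card F = 2 ^ 2)
    (K : Subalgebra F (Matrix (Fin 5) (Fin 5) F)) (hK : IsFieldSubalgebra 5 K)
    (hadj : IsAdjointClosedFor (hermForm 5 F 2) K) :
    ¬ IsMaximalIn (SUg 5 F 2) (subalgebraNormalizer K ⊓ SUg 5 F 2) := by
  classical
  rintro ⟨-, hmax⟩
  obtain ⟨ω, hω⟩ := Cfsg.Agent.Lib.Helper60.SUSmall.exists_omega_f4 hF
  obtain ⟨l, g, s, hlU, hl11, hl1, hm1, hmj, hgSU, hgc, hgnc, hsSU, x, hx, hsx⟩ :=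
    Cfsg.Agent.Lib.Helper86.SUSmall.e5_data hF ω hω
  obtain ⟨T, hTU, hTK⟩ := Cfsg.Agent.Lib.Helper60.SUSmall.e5_normal hF K hK hadj l hlU hl11 hl1
  have hSLn : (specialLinear (Fin 5) F).Normal := by
    unfold specialLinear; infer_instance
  let M : Subgroup (GL (Fin 5) F) :=
    (M5 ω l).comap (MulAut.conj T⁻¹).toMonoidHom ⊓ SUg 5 F 2
  have hmem : ∀ g, g ∈ M ↔ (T⁻¹ * g * T ∈ M5 ω l ∧ g ∈ SUg 5 F 2) := by
    intro g
    simp [M, Subgroup.mem_inf, Subgroup.mem_comap]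
  have hconj' : ∀ g, g ∈ SUg 5 F 2 → T * g * T⁻¹ ∈ SUg 5 F 2 := by
    intro g hg
    obtain ⟨hg1, hg2⟩ := Subgroup.mem_inf.mp hg
    exact Subgroup.mem_inf.mpr ⟨mul_mem (mul_mem hTU hg1) (inv_mem hTU), hSLn.conj_mem g hg2 T⟩
  have hL11 : (T * l * T⁻¹) ^ 11 = 1 := by
    rw [conj_pow, hl11]; group
  have hL1 : T * l * T⁻¹ ≠ 1 := by
    intro h
    apply hl1
    have : l = T⁻¹ * (T * l * T⁻¹) * T := by group
    rw [this, h]; group
  have hle : subalgebraNormalizer K ⊓ SUg 5 F 2 ≤ M := by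
    intro y hy
    obtain ⟨hy1, hy2⟩ := Subgroup.mem_inf.mp hy
    rw [hmem]
    refine ⟨?_, hy2⟩
    have hyU : y ∈ GU 5 F 2 := (Subgroup.mem_inf.mp hy2).1
    have hhU : T⁻¹ * y * T ∈ GU 5 F 2 := mul_mem (mul_mem (inv_mem hTU) hyU) hTU
    have hμK : ((y⁻¹ * (T * l * T⁻¹) * y : GL (Fin 5) F) : Matrix (Fin 5) (Fin 5) F) ∈ K := by
      have := ((inv_mem hy1 : y⁻¹ ∈ subalgebraNormalizer K) _).mp hTK
      rw [inv_inv] at this
      rw [Units.val_mul, Units.val_mul]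
      exact this
    have hμ11 : (y⁻¹ * (T * l * T⁻¹) * y) ^ 11 = 1 := by
      rw [conj_pow_aux, hL11]; group
    obtain ⟨j, hj11, hj⟩ := Cfsg.Agent.Lib.Helper60.SUSmall.K_eq_pow hK 11 (by norm_num) hTK hμK
      (by rw [← Units.val_pow_eq_pow_val, hL11, Units.val_one])
      (by intro h; exact hL1 (Units.ext (by rw [h, Units.val_one])))
      (by rw [← Units.val_pow_eq_pow_val, hμ11, Units.val_one])
    have hj' : y⁻¹ * (T * l * T⁻¹) * y = (T * l * T⁻¹) ^ j :=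
      Units.ext (by rw [hj, Units.val_pow_eq_pow_val])
    have hc : (T⁻¹ * y * T)⁻¹ * l * (T⁻¹ * y * T) = l ^ j := by
      have e1 : (T⁻¹ * y * T)⁻¹ * l * (T⁻¹ * y * T) = T⁻¹ * (y⁻¹ * (T * l * T⁻¹) * y) * T := by
        group
      rw [e1, hj', conj_pow]; group
    have hmz : m1five ω ((l ^ j : GL (Fin 5) F) : Matrix (Fin 5) (Fin 5) F) = 0 := by
      rw [← hc, Units.val_mul, Units.val_mul, m1five_conj, hm1, Matrix.mul_zero, Matrix.zero_mul]
    have hjs : j = 1 ∨ j = 3 ∨ j = 4 ∨ j = 5 ∨ j = 9 := by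
      have h0 : j ≠ 0 := by
        rintro rfl
        apply hl1
        rw [pow_zero] at hc
        have : l = (T⁻¹ * y * T) * ((T⁻¹ * y * T)⁻¹ * l * (T⁻¹ * y * T)) * (T⁻¹ * y * T)⁻¹ := by
          group
        rw [this, hc]; group
      have hn : j ∉ ({2, 6, 7, 8, 10} : Finset ℕ) := fun h => hmj j h hmz
      simp only [Finset.mem_insert, Finset.mem_singleton, not_or] at hn
      omega
    intro w
    exact cond5_of_conj ω l _ hl11 hhU hjs hc w
  rcases hmax M hle inf_le_right with hM | hM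
  · -- the extra element
    have hgM : T * g * T⁻¹ ∈ M := by
      rw [hmem]
      refine ⟨?_, hconj' g hgSU⟩
      have : T⁻¹ * (T * g * T⁻¹) * T = g := by group
      rw [this]
      exact hgc
    rw [hM] at hgM
    have hN := ((Subgroup.mem_inf.mp hgM).1 _).mp hTK
    have hcm := hK.comm _ hN _ hTK
    rw [← Units.val_mul, ← Units.val_mul, ← Units.val_mul, ← Units.val_mul] at hcm
    have hcm' := Units.ext hcm
    apply hgnc
    have e1 : g * l * g⁻¹ * l =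
        T⁻¹ * (T * g * T⁻¹ * (T * l * T⁻¹) * (T * g * T⁻¹)⁻¹ * (T * l * T⁻¹)) * T := by group
    have e2 : l * (g * l * g⁻¹) =
        T⁻¹ * (T * l * T⁻¹ * (T * g * T⁻¹ * (T * l * T⁻¹) * (T * g * T⁻¹)⁻¹)) * T := by group
    rw [e1, e2, hcm']
  · have hsM : T * s * T⁻¹ ∈ M := by
      rw [hM]; exact hconj' s hsSU
    rw [hmem] at hsM
    have : T⁻¹ * (T * s * T⁻¹) * T = s := by group
    rw [this] at hsM
    exact hsx ((hsM.1 x).mpr hx)

end Cfsg.Agent.Lib.Helper88.SUSmall
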