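import Cfsg.Agent.Lib.Helper13.SUSmall.Defs
import Cfsg.Agent.Lib.Helper88.SUSmall.E6a

set_option autoImplicit false

/-! # E6cB2 (helper88 for helper13's farm) -/

namespace Cfsg.Agent.Lib.Helper88.SUSmall

open Cfsg Cfsg.Geo Matrix Cfsg.Agent.Lib.Helper5.SUAsch Cfsg.Agent.Lib.Helper13.SUSmall
open Cfsg.Agent.Lib.Helper27 (H4 toH4 toH4_omega)
open scoped MatrixGroups

theorem e6c_B2_H4 : ∀ d0 d1 d2 : H4,
    (pol6 H4.w d0 d1 d2).map (fun x => x ^ 2) * (pol6 H4.w d0 d1 d2)ᵀ = 1 →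
      (d1 = 0 ∧ d2 = 0) ∨ (d0 = 0 ∧ d2 = 0 ∧ d1 ≠ 0) ∨ (d0 = 0 ∧ d1 = 0 ∧ d2 ≠ 0) := by
  decide +kernel

theorem lam6_map {K L : Type*} [Field K] [Field L] (φ : K →+* L) (ω : K) :
    (lam6 ω).map φ = lam6 (φ ω) := by
  ext i j
  fin_cases i <;> fin_cases j <;> simp [lam6]

theorem pol6_map {K L : Type*} [Field K] [Field L] (φ : K →+* L) (ω d0 d1 d2 : K) :
    (pol6 ω d0 d1 d2).map φ = pol6 (φ ω) (φ d0) (φ d1) (φ d2) := by
  unfold pol6
  rw [← lam6_map φ ω]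
  have h1 : ∀ (c : K) (M : Matrix (Fin 6) (Fin 6) K), (c • M).map φ = φ c • M.map φ := by
    intro c M; ext i j; simp
  rw [Matrix.map_add _ (map_add φ), Matrix.map_add _ (map_add φ), h1, h1, h1,
    Matrix.map_one _ (map_zero φ) (map_one φ), Matrix.map_pow]

/-- the permutation `(0 1 2)(3 4 5)` -/
def sig6 : Equiv.Perm (Fin 6) :=
  ⟨![1, 2, 0, 4, 5, 3], ![2, 0, 1, 5, 3, 4], by decide, by decide⟩

variable {F : Type*} [Field F]

theorem lam6_eq_mono6 (ω : F) : lam6 ω = mono6 sig6 ![1, 1, ω, 1, 1, ω] := by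
  ext i j
  fin_cases i <;> fin_cases j <;> simp [lam6, mono6, sig6]

theorem det_lam6 [CharP F 2] (ω : F) : (lam6 ω).det = ω ^ 2 := by
  rw [lam6_eq_mono6, det_mono6]
  have h1 : ∏ i, (![1, 1, ω, 1, 1, ω] : Fin 6 → F) i = ω ^ 2 := by
    simp [Fin.prod_univ_six]; ring
  rw [h1]
  rcases Int.units_eq_one_or (Equiv.Perm.sign sig6⁻¹) with h | h
  · rw [h]; simp
  · rw [h]
    have : (((-1 : ℤˣ) : ℤ) : F) = 1 := by
      simp [CharTwo.neg_eq]
    rw [this, one_mul]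

theorem e6c_B2 [Fintype F] (hF : Fintype.card F = 2 ^ 2) (ω : F) (hω : ω ^ 2 + ω + 1 = 0)
    (d0 d1 d2 : F)
    (hu : (pol6 ω d0 d1 d2).map (fun x => x ^ 2) * (pol6 ω d0 d1 d2)ᵀ = 1)
    (hdet : (pol6 ω d0 d1 d2).det = 1) : d1 = 0 ∧ d2 = 0 := by
  have hF4 : Fintype.card F = 4 := by rw [hF]; norm_num
  have hch := charTwo_of_card hF
  let e := toH4 hF4 ω hω
  let φ : F →+* H4 := e
  have hφ0 : ∀ x, φ x = 0 ↔ x = 0 := fun x => map_eq_zero_iff φ e.injective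
  have hφω : φ ω = H4.w := toH4_omega hF4 ω hω
  have h1 := congrArg (fun M => M.map φ) hu
  rw [Matrix.map_mul, Matrix.map_one _ (map_zero φ) (map_one φ)] at h1
  have h2 : ((pol6 ω d0 d1 d2).map (fun x => x ^ 2)).map φ =
      ((pol6 ω d0 d1 d2).map φ).map (fun x => x ^ 2) := by
    ext i j; simp
  have h3 : ((pol6 ω d0 d1 d2)ᵀ).map φ = ((pol6 ω d0 d1 d2).map φ)ᵀ := by
    ext i j; simp
  rw [h2, h3, pol6_map, hφω] at h1
  have hω1 : ω ≠ 1 := by
    rintro rfl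
    have : (1 : F) ^ 2 + 1 + 1 = 1 := by
      rw [one_pow, CharTwo.add_self_eq_zero, zero_add]
    rw [this] at hω
    exact one_ne_zero hω
  have hω0 : ω ≠ 0 := by
    rintro rfl
    simp at hω
  have hω3 : ω ^ 3 = 1 := by
    rcases cube_eq hF ω with h | h
    · exact absurd h hω0
    · exact h
  have hω2 : ω ^ 2 ≠ 1 := by
    intro h
    apply hω1
    have : ω ^ 3 = ω ^ 2 * ω := by ring
    rw [this, h, one_mul] at hω3
    exact hω3
  rcases e6c_B2_H4 _ _ _ h1 with ⟨a, b⟩ | ⟨a, b, c⟩ | ⟨a, b, c⟩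
  · exact ⟨(hφ0 _).mp a, (hφ0 _).mp b⟩
  · exfalso
    have a' := (hφ0 _).mp a
    have b' := (hφ0 _).mp b
    have c' : d1 ≠ 0 := fun h => c ((hφ0 _).mpr h)
    have hx : d1 ^ 3 = 1 := by
      rcases cube_eq hF d1 with h | h
      · exact absurd h c'
      · exact h
    have hp : pol6 ω d0 d1 d2 = d1 • lam6 ω := by
      unfold pol6; rw [a', b']; simp
    rw [hp, Matrix.det_smul, det_lam6, Fintype.card_fin] at hdet
    have : d1 ^ 6 = 1 := by
      have : d1 ^ 6 = (d1 ^ 3) ^ 2 := by ring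
      rw [this, hx, one_pow]
    rw [this, one_mul] at hdet
    exact hω2 hdet
  · exfalso
    have a' := (hφ0 _).mp a
    have b' := (hφ0 _).mp b
    have c' : d2 ≠ 0 := fun h => c ((hφ0 _).mpr h)
    have hx : d2 ^ 3 = 1 := by
      rcases cube_eq hF d2 with h | h
      · exact absurd h c'
      · exact h
    have hp : pol6 ω d0 d1 d2 = d2 • (lam6 ω) ^ 2 := by
      unfold pol6; rw [a', b']; simp
    rw [hp, Matrix.det_smul, Matrix.det_pow, det_lam6, Fintype.card_fin] at hdet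
    have : d2 ^ 6 = 1 := by
      have : d2 ^ 6 = (d2 ^ 3) ^ 2 := by ring
      rw [this, hx, one_pow]
    rw [this, one_mul] at hdet
    apply hω1
    have : (ω ^ 2) ^ 2 = ω ^ 3 * ω := by ring
    rw [this, hω3, one_mul] at hdet
    exact hdet

end Cfsg.Agent.Lib.Helper88.SUSmall
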