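import Cfsg.Agent.Lib.Helper88.SUSmall.E6cB2

set_option autoImplicit false

/-! # E6cB3, core (helper88 for helper13's farm): `e6c_concrete` from B1 (as a hypothesis) and B2 -/

namespace Cfsg.Agent.Lib.Helper88.SUSmall

open Cfsg Cfsg.Geo Matrix Cfsg.Agent.Lib.Helper5.SUAsch Cfsg.Agent.Lib.Helper13.SUSmall
open Cfsg.Agent.Lib.Helper9.AschU (adj mem_GU_iff_adj)
open scoped MatrixGroups

variable {F : Type*} [Field F]

/-- the diagonal matrix `diag(1,t,t²,1,t,t²)` -/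
def Dt6 (t : F) : Matrix (Fin 6) (Fin 6) F := Matrix.diagonal ![1, t, t ^ 2, 1, t, t ^ 2]

theorem B6_transpose (ω : F) : (B6 ω)ᵀ = B6 ω := by
  ext i j
  fin_cases i <;> fin_cases j <;> simp [B6]

theorem B6_sq (ω : F) (hω3 : ω ^ 3 = 1) : (B6 ω).map (fun x => x ^ 2) * B6 ω = 1 := by
  have h : ω ^ 2 * ω = 1 := by rw [← hω3]; ring
  ext i j
  fin_cases i <;> fin_cases j <;>
    simp [B6, Matrix.mul_apply, Fin.sum_univ_six, h]

theorem lam6_B6 (ω : F) : (lam6 ω)ᵀ * B6 ω = B6 ω * lam6 ω := by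
  ext i j
  fin_cases i <;> fin_cases j <;>
    simp [B6, lam6, Matrix.mul_apply, Fin.sum_univ_six]

theorem Dt6_lam6 (ω t : F) (ht : t ^ 3 = 1) : Dt6 t * lam6 ω = t • (lam6 ω * Dt6 t) := by
  have h : t * (ω * (t * t)) = ω := by
    have : t * (ω * (t * t)) = ω * t ^ 3 := by ring
    rw [this, ht, mul_one]
  ext i j
  simp only [Dt6, Matrix.smul_apply, Matrix.diagonal_mul, Matrix.mul_diagonal, smul_eq_mul]
  fin_cases i <;> fin_cases j <;> simp [lam6, h, pow_two]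

theorem Dt6_transpose (t : F) : (Dt6 t)ᵀ = Dt6 t := Matrix.diagonal_transpose _

theorem Dt6_B6 (ω t : F) (ht : t ^ 3 = 1) : Dt6 t * B6 ω * Dt6 t = B6 ω := by
  have h1 : t * ω * (t * t) = ω := by
    have : t * ω * (t * t) = ω * t ^ 3 := by ring
    rw [this, ht, mul_one]
  have h2 : t * t * ω * t = ω := by
    have : t * t * ω * t = ω * t ^ 3 := by ring
    rw [this, ht, mul_one]
  ext i j
  simp only [Dt6, Matrix.diagonal_mul, Matrix.mul_diagonal]
  fin_cases i <;> fin_cases j <;> simp [B6, h1, h2, pow_two]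

theorem Dt6_det (t : F) (ht : t ^ 3 = 1) : (Dt6 t).det = 1 := by
  unfold Dt6
  rw [Matrix.det_diagonal]
  simp only [Fin.prod_univ_six]
  simp
  have : t * t ^ 2 * t * t ^ 2 = (t ^ 3) ^ 2 := by ring
  rw [this, ht, one_pow]

theorem Dt6_unitary (t : F) (ht : t ^ 3 = 1) : (Dt6 t).map (fun x => x ^ 2) * Dt6 t = 1 := by
  have h1 : t ^ 2 * t = 1 := by rw [← ht]; ring
  have h2 : (t ^ 2) ^ 2 * t ^ 2 = 1 := by
    have : (t ^ 2) ^ 2 * t ^ 2 = (t ^ 3) ^ 2 := by ring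
    rw [this, ht, one_pow]
  ext i j
  simp only [Dt6, Matrix.mul_diagonal, Matrix.map_apply]
  fin_cases i <;> fin_cases j <;> simp [h1, h2]

theorem pol6_B6 (ω d0 d1 d2 : F) : (pol6 ω d0 d1 d2)ᵀ * B6 ω = B6 ω * pol6 ω d0 d1 d2 := by
  have h := lam6_B6 ω
  have h2 : ((lam6 ω) ^ 2)ᵀ * B6 ω = B6 ω * (lam6 ω) ^ 2 := by
    rw [pow_two, Matrix.transpose_mul, Matrix.mul_assoc, h, ← Matrix.mul_assoc, h,
      Matrix.mul_assoc]
  unfold pol6
  rw [Matrix.transpose_add, Matrix.transpose_add, Matrix.transpose_smul, Matrix.transpose_smul,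
    Matrix.transpose_smul, Matrix.transpose_one, Matrix.add_mul, Matrix.add_mul, Matrix.mul_add,
    Matrix.mul_add, Matrix.smul_mul, Matrix.smul_mul, Matrix.smul_mul, Matrix.mul_smul,
    Matrix.mul_smul, Matrix.mul_smul, h, h2, Matrix.one_mul, Matrix.mul_one]

/-- the matrix core -/
theorem e6c_core [Fintype F] (hF : Fintype.card F = 2 ^ 2) (ω : F) (hω : ω ^ 2 + ω + 1 = 0)
    (hB1 : ∀ h : Matrix (Fin 6) (Fin 6) F, h * lam6 ω = lam6 ω * h →
      ∃ d0 d1 d2 : F, hᵀ * B6 ω * h = B6 ω * pol6 ω d0 d1 d2)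
    (H : Matrix (Fin 6) (Fin 6) F) (hU : (H.map (fun x => x ^ 2))ᵀ * H = 1) (hdet : H.det = 1)
    (hcom : H * lam6 ω = lam6 ω * H) :
    ∃ d : F, Hᵀ * B6 ω * H = d • B6 ω := by
  have hch := charTwo_of_card hF
  have : Fact (Nat.Prime 2) := ⟨Nat.prime_two⟩
  let S : F →+* F := frobenius F 2
  have hS : ∀ M : Matrix (Fin 6) (Fin 6) F, M.map (fun x => x ^ 2) = M.map S := by
    intro M; ext i j; simp [S, frobenius_def]
  have hω0 : ω ≠ 0 := by
    rintro rfl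
    simp at hω
  have hω3 : ω ^ 3 = 1 := by
    rcases cube_eq hF ω with h | h
    · exact absurd h hω0
    · exact h
  obtain ⟨d0, d1, d2, hE⟩ := hB1 H hcom
  set B := B6 ω with hB
  set Δ := pol6 ω d0 d1 d2 with hΔ
  have hBB : B.map S * B = 1 := by rw [← hS]; exact B6_sq ω hω3
  have hBB' : B * B.map S = 1 := mul_eq_one_comm.mp hBB
  rw [hS] at hU
  have hU' : H * (H.map S)ᵀ = 1 := mul_eq_one_comm.mp hU
  have hU'' : H.map S * Hᵀ = 1 := by
    have := congrArg Matrix.transpose hU'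
    rwa [Matrix.transpose_mul, Matrix.transpose_transpose, Matrix.transpose_one] at this
  have hEσ : (H.map S)ᵀ * B.map S * H.map S = B.map S * Δ.map S := by
    have := congrArg (fun M => M.map S) hE
    simp only [Matrix.map_mul] at this
    rwa [Matrix.transpose_map] at this
  have hprod : B.map S * (Δ.map S * Δᵀ) * B = 1 := by
    calc B.map S * (Δ.map S * Δᵀ) * B = (B.map S * Δ.map S) * (Δᵀ * B) := by
          simp only [Matrix.mul_assoc]
      _ = (B.map S * Δ.map S) * (B * Δ) := by rw [hΔ, hB, pol6_B6]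
      _ = ((H.map S)ᵀ * B.map S * H.map S) * (Hᵀ * B * H) := by rw [hEσ, hE]
      _ = (H.map S)ᵀ * B.map S * (H.map S * Hᵀ) * B * H := by simp only [Matrix.mul_assoc]
      _ = (H.map S)ᵀ * (B.map S * B) * H := by rw [hU'', Matrix.mul_one]; simp only [Matrix.mul_assoc]
      _ = 1 := by rw [hBB, Matrix.mul_one, hU]
  have hu : Δ.map S * Δᵀ = 1 := by
    calc Δ.map S * Δᵀ = (B * B.map S) * (Δ.map S * Δᵀ) * (B * B.map S) := by
          rw [hBB', Matrix.one_mul, Matrix.mul_one]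
      _ = B * (B.map S * (Δ.map S * Δᵀ) * B) * B.map S := by simp only [Matrix.mul_assoc]
      _ = 1 := by rw [hprod, Matrix.mul_one, hBB']
  have hdB : B.det ≠ 0 := by
    intro h0
    have := congrArg Matrix.det hBB
    rw [Matrix.det_mul, h0, mul_zero, Matrix.det_one] at this
    exact zero_ne_one this
  have hdΔ : Δ.det = 1 := by
    have := congrArg Matrix.det hE
    rw [Matrix.det_mul, Matrix.det_mul, Matrix.det_mul, Matrix.det_transpose, hdet, one_mul,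
      mul_one] at this
    exact (mul_right_cancel₀ hdB (by rw [one_mul, mul_comm]; exact this)).symm
  rw [← hS] at hu
  obtain ⟨h1, h2⟩ := e6c_B2 hF ω hω d0 d1 d2 hu hdΔ
  refine ⟨d0, ?_⟩
  rw [hE, hΔ, h1, h2]
  simp [pol6]

theorem e6c_concrete_aux [Fintype F] (hF : Fintype.card F = 2 ^ 2) (ω : F)
    (hω : ω ^ 2 + ω + 1 = 0)
    (hB1 : ∀ h : Matrix (Fin 6) (Fin 6) F, h * lam6 ω = lam6 ω * h →
      ∃ d0 d1 d2 : F, hᵀ * B6 ω * h = B6 ω * pol6 ω d0 d1 d2)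
    (h : GL (Fin 6) F) (hh : h ∈ SUg 6 F 2) (c : F) (hc : c ^ 3 = 1)
    (hcom : (h : Matrix (Fin 6) (Fin 6) F) * lam6 ω =
      c • (lam6 ω * (h : Matrix (Fin 6) (Fin 6) F))) :
    ∃ d : F, (h : Matrix (Fin 6) (Fin 6) F)ᵀ * B6 ω * (h : Matrix (Fin 6) (Fin 6) F) =
      d • B6 ω := by
  have hch := charTwo_of_card hF
  have : Fact (Nat.Prime 2) := ⟨Nat.prime_two⟩
  let S : F →+* F := frobenius F 2
  have hS : ∀ M : Matrix (Fin 6) (Fin 6) F, M.map (fun x => x ^ 2) = M.map S := by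
    intro M; ext i j; simp [S, frobenius_def]
  obtain ⟨hh1, hh2⟩ := Subgroup.mem_inf.mp hh
  set H := (h : Matrix (Fin 6) (Fin 6) F) with hH
  have hU : (H.map S)ᵀ * H = 1 := by
    have h1 := (mem_GU_iff_adj hF h).mp hh1
    have h2 : adj 2 H = (H.map S)ᵀ := by
      ext i j; simp [adj, S, frobenius_def]
    rwa [← hH, h2] at h1
  have hdet : H.det = 1 := (mem_sl6_iff h).mp hh2
  have ht : (c ^ 2) ^ 3 = 1 := by
    have : (c ^ 2) ^ 3 = (c ^ 3) ^ 2 := by ring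
    rw [this, hc, one_pow]
  have hct : c * c ^ 2 = 1 := by rw [← hc]; ring
  set D := Dt6 (c ^ 2) with hD
  have hDU : (D.map S)ᵀ * D = 1 := by
    rw [← Matrix.transpose_map, hD, Dt6_transpose, ← hS]
    exact Dt6_unitary _ ht
  have hU' : (((D * H).map (fun x => x ^ 2)))ᵀ * (D * H) = 1 := by
    rw [hS, Matrix.map_mul, Matrix.transpose_mul]
    calc (H.map S)ᵀ * (D.map S)ᵀ * (D * H) = (H.map S)ᵀ * ((D.map S)ᵀ * D) * H := by
          simp only [Matrix.mul_assoc]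
      _ = 1 := by rw [hDU, Matrix.mul_one, hU]
  have hdet' : (D * H).det = 1 := by
    rw [Matrix.det_mul, hdet, hD, Dt6_det _ ht, one_mul]
  have hcom' : D * H * lam6 ω = lam6 ω * (D * H) := by
    rw [Matrix.mul_assoc, hcom, Matrix.mul_smul, ← Matrix.mul_assoc, hD, Dt6_lam6 ω _ ht,
      Matrix.smul_mul, smul_smul, hct, one_smul, Matrix.mul_assoc]
  obtain ⟨d, hd⟩ := e6c_core hF ω hω hB1 (D * H) hU' hdet' hcom'
  refine ⟨d, ?_⟩
  rw [← hd, Matrix.transpose_mul, hD, Dt6_transpose]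
  calc Hᵀ * B6 ω * H = Hᵀ * (Dt6 (c ^ 2) * B6 ω * Dt6 (c ^ 2)) * H := by rw [Dt6_B6 ω _ ht]
    _ = _ := by simp only [Matrix.mul_assoc]

end Cfsg.Agent.Lib.Helper88.SUSmall
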